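import Cfsg.Agent.KFacts.RgdAutFacts
import Cfsg.Agent.KFacts.Mult.RGDW
import Cfsg.Agent.Nodes.CardSup
import Cfsg.Agent.Nodes.RGDChev
import Cfsg.Agent.S1059

/-!
# The pair of parabolics of `G₂(2)` (helper565, for TEAM RV)

Every Sylow `2`-subgroup `P` of `G₂(2)` has normal subgroups `U₁`, `U₂` of order 32, generated by involutions, whose
normalisers generate the group.
-/

set_option autoImplicit false

namespace Cfsg.Agent.H565.RV.GTwo

open CoxeterSystem Subgroup Cfsg Cfsg.Lie Cfsg.Agent.ChevalleyStructure Cfsg.Agent.ChevalleyStructure.Elts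
  Cfsg.Agent.ChevalleyStructure.CoxeterGeom Cfsg.Agent.ChevalleyStructure.CoxeterGeomTypes
  Cfsg.Agent.Tits.Roots Cfsg.Agent.Tits.Core Cfsg.Agent.Nodes Cfsg.Agent.Nodes.Reps Cfsg.Agent.Nodes.BNOf
  Cfsg.Agent.Nodes.RGDChev Cfsg.Agent.Nodes.Bruhat Cfsg.Agent.Nodes.OppDec Cfsg.Agent.Nodes.CardSup
  Cfsg.Agent.KFacts.RgdAutFacts

universe u v

/-! ### the conclusion -/

/-- the data -/
def Two (X : Type u) [Group X] (P U₁ U₂ : Subgroup X) : Prop :=
  (U₁ ≤ P ∧ (∀ x ∈ P, ∀ u ∈ U₁, x * u * x⁻¹ ∈ U₁) ∧ Nat.card U₁ = 32 ∧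
    U₁ = closure {x | x ∈ U₁ ∧ x * x = 1}) ∧ (U₂ ≤ P ∧ (∀ x ∈ P, ∀ u ∈ U₂, x * u * x⁻¹ ∈ U₂) ∧ Nat.card U₂ = 32 ∧
    U₂ = closure {x | x ∈ U₂ ∧ x * x = 1}) ∧ normalizer (U₁ : Set X) ⊔ normalizer (U₂ : Set X) = ⊤

/-- transport of one half -/
theorem half {X : Type u} {Y : Type v} [Group X] [Group Y] (φ : Y ≃* X) {P U : Subgroup Y}
    (h : U ≤ P ∧ (∀ x ∈ P, ∀ u ∈ U, x * u * x⁻¹ ∈ U) ∧ Nat.card U = 32 ∧ U = closure {x | x ∈ U ∧ x * x = 1}) :
    U.map φ.toMonoidHom ≤ P.map φ.toMonoidHom ∧ (∀ x ∈ P.map φ.toMonoidHom, ∀ u ∈ U.map φ.toMonoidHom,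
      x * u * x⁻¹ ∈ U.map φ.toMonoidHom) ∧ Nat.card (U.map φ.toMonoidHom) = 32 ∧
      U.map φ.toMonoidHom = closure {x | x ∈ U.map φ.toMonoidHom ∧ x * x = 1} := by
  obtain ⟨h1, h2, h3, h4⟩ := h
  refine ⟨Subgroup.map_mono h1, ?_, ?_, ?_⟩
  · rintro _ ⟨x, hx, rfl⟩ _ ⟨u, hu, rfl⟩
    exact ⟨x * u * x⁻¹, h2 x hx u hu, by rw [map_mul, map_mul, map_inv]⟩
  · rw [← h3]
    exact (Nat.card_congr (U.equivMapOfInjective φ.toMonoidHom φ.injective).toEquiv).symm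
  · apply le_antisymm
    · have h5 : U.map φ.toMonoidHom = (closure {x | x ∈ U ∧ x * x = 1}).map φ.toMonoidHom := by rw [← h4]
      conv_lhs => rw [h5]
      rw [MonoidHom.map_closure, Subgroup.closure_le]
      rintro _ ⟨x, ⟨hx, hx1⟩, rfl⟩
      refine Subgroup.subset_closure ⟨⟨x, hx, rfl⟩, ?_⟩
      rw [← map_mul, hx1, map_one]
    · rw [Subgroup.closure_le]
      rintro x ⟨hx, -⟩
      exact hx

theorem Two.map {X : Type u} {Y : Type v} [Group X] [Group Y] (φ : Y ≃* X) {P U₁ U₂ : Subgroup Y} (h : Two Y P U₁ U₂) :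
    Two X (P.map φ.toMonoidHom) (U₁.map φ.toMonoidHom) (U₂.map φ.toMonoidHom) := by
  refine ⟨half φ h.1, half φ h.2.1, ?_⟩
  have h1 : ∀ U : Subgroup Y, (normalizer (U : Set Y)).map φ.toMonoidHom ≤ normalizer (U.map φ.toMonoidHom : Set X) := by
    rintro U _ ⟨g, hg, rfl⟩
    rw [SetLike.mem_coe, Subgroup.mem_normalizer_iff] at hg
    rw [Subgroup.mem_normalizer_iff]
    intro x
    constructor
    · rintro ⟨u, hu, rfl⟩
      exact ⟨g * u * g⁻¹, (hg u).1 hu, by rw [map_mul, map_mul, map_inv]⟩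
    · rintro ⟨u, hu, he⟩
      refine ⟨g⁻¹ * u * g, (hg _).2 ?_, ?_⟩
      · have e : g * (g⁻¹ * u * g) * g⁻¹ = u := by group
        rw [e]; exact hu
      · rw [map_mul, map_mul, map_inv, he]; group
  rw [eq_top_iff, ← Subgroup.map_top_of_surjective φ.toMonoidHom φ.surjective, ← h.2.2, Subgroup.map_sup]
  exact sup_le_sup (h1 U₁) (h1 U₂)

/-! ### root group data -/

section rgd

variable {I W Y : Type*} [Fintype I] [DecidableEq I] [Group W] [Group Y] {M : CoxeterMatrix I}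
  {cs : CoxeterSystem M W} {A : I → I → ℤ} {h : IsCartan M A} {T : Subgroup Y} {n : I → Y}
  {X : (I → ℤ) → Subgroup Y} (R : RGD cs h 2 T n X) [Finite W] [Finite Y] (hG : GG cs h T X = ⊤)
  (hX : ∀ x, IsRoot cs h x → ∀ u ∈ X x, u * u = 1) (hc : ∀ i, Nat.card (X (sr i)) = 2)
  (hU : Nat.card (RGD.Sup X (RGD.Pos cs h)) = 64)

include R hX hc hU

theorem one (i : I) : RGD.Sup X (RGD.PosNe cs h i) ≤ RGD.Sup X (RGD.Pos cs h) ∧
    (∀ x ∈ RGD.Sup X (RGD.Pos cs h), ∀ u ∈ RGD.Sup X (RGD.PosNe cs h i), x * u * x⁻¹ ∈ RGD.Sup X (RGD.PosNe cs h i)) ∧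
    Nat.card (RGD.Sup X (RGD.PosNe cs h i)) = 32 ∧
    RGD.Sup X (RGD.PosNe cs h i) = closure {x | x ∈ RGD.Sup X (RGD.PosNe cs h i) ∧ x * x = 1} := by
  have hN : RGD.Sup X (RGD.Pos cs h) ≤ normalizer (RGD.Sup X (RGD.PosNe cs h i) : Set Y) := by
    rw [R.Upos_eq i]
    exact sup_le (R.X_le_normalizer_V i) Subgroup.le_normalizer
  have hVU : RGD.Sup X (RGD.PosNe cs h i) ≤ RGD.Sup X (RGD.Pos cs h) := RGD.Sup_mono fun z hz => ⟨hz.1, hz.2.1⟩
  refine ⟨hVU, fun x hx u hu => ((Subgroup.mem_normalizer_iff.1 (hN hx)) u).1 hu, ?_, ?_⟩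
  · have h1 := card_mul_of_disjoint (A := X (sr i)) (B := RGD.Sup X (RGD.PosNe cs h i)) (C := RGD.Sup X (RGD.Pos cs h))
      (RGD.le_Sup (S := RGD.Pos cs h) ⟨isRoot_sr cs h i, sr_nonneg i⟩) hVU (fun g hg => by
        have h1 : g ∈ ((X (sr i) ⊔ RGD.Sup X (RGD.PosNe cs h i) : Subgroup Y) : Set Y) := by rw [← R.Upos_eq i]; exact hg
        rw [Subgroup.coe_mul_of_left_le_normalizer_right _ _ (R.X_le_normalizer_V i), Set.mem_mul] at h1
        obtain ⟨a, ha, b, hb, e⟩ := h1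
        exact ⟨a, ha, b, hb, e.symm⟩) (by
        rw [Subgroup.eq_bot_iff_forall]
        rintro u ⟨h1, h2⟩
        exact eq_one_of_mem_PosNe R h1 h2)
    rw [hU, hc] at h1
    omega
  · apply le_antisymm
    · refine RGD.Sup_le fun z hz u hu => Subgroup.subset_closure ⟨?_, hX z hz.1 u hu⟩
      exact RGD.le_Sup hz hu
    · rw [Subgroup.closure_le]
      rintro x ⟨hx, -⟩
      exact hx

include hG in
theorem two {i j : I} (hij : ∀ l, l = i ∨ l = j) : Two Y (RGD.Sup X (RGD.Pos cs h)) (RGD.Sup X (RGD.PosNe cs h i))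
    (RGD.Sup X (RGD.PosNe cs h j)) := by
  refine ⟨one R hX hc hU i, one R hX hc hU j, ?_⟩
  have hN : ∀ i, RGD.Sup X (RGD.Pos cs h) ≤ normalizer (RGD.Sup X (RGD.PosNe cs h i) : Set Y) := by
    intro i
    rw [R.Upos_eq i]
    exact sup_le (R.X_le_normalizer_V i) Subgroup.le_normalizer
  have hnn : ∀ i, n i ∈ normalizer (RGD.Sup X (RGD.PosNe cs h i) : Set Y) := fun i => by
    rw [mem_normalizer_iff_cj]
    exact R.cj_n_V i
  have := Fact.mk Nat.prime_two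
  refine GG_le R hG (sup_le ?_ ((hN i).trans le_sup_left)) fun l => ?_
  · exact (R.T_le_normalizer fun x hx => hx.1).trans le_sup_left
  · rcases hij l with rfl | rfl
    · exact Subgroup.mem_sup_left (hnn _)
    · exact Subgroup.mem_sup_right (hnn _)

end rgd

/-! ### `G₂(2)` -/

theorem typeG2 : IsType chevG2 2 CoxeterMatrix.G₂ := by simp [IsType, typeList]

section

variable {D : ChevalleyDatum} {l : ℕ} {M : CoxeterMatrix (Fin l)} (hp : IsType D l M) {K : Type u} [Field K] [Finite K]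
  {W : Type*} [Group W] (cs : CoxeterSystem M W)

include hp in
theorem root_iff {r : ℕ} (hr : r < D.nroots) {u : ↥(D.group K)} :
    u ∈ (XV D l K (vec D l r)).subgroupOf (D.group K) ↔ ∃ t, xG hp.inList r t = (u : GL D.Idx K) := by
  rw [Subgroup.mem_subgroupOf, XV_vec hp K hr, mem_rootSubgroup_iff hp.inList]
  exact exists_congr fun t => eq_comm

theorem card_root {x : Fin l → ℤ} (hx : IsRoot cs hp.isCartan x) :
    Nat.card ((XV D l K x).subgroupOf (D.group K)) = Nat.card K := by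
  obtain ⟨r, hr, rfl⟩ := (isRoot_iff hp cs x).1 hx
  refine (Nat.card_congr (Equiv.ofBijective (fun t : K => (⟨⟨xG hp.inList r t, xG_mem_group hp.inList r t⟩,
    (root_iff hp hr).2 ⟨t, rfl⟩⟩ : (XV D l K (vec D l r)).subgroupOf (D.group K))) ⟨?_, ?_⟩)).symm
  · intro s t h
    exact xG_injective hp.inList hr (congrArg (fun z : (XV D l K (vec D l r)).subgroupOf (D.group K) =>
      ((z : ↥(D.group K)) : GL D.Idx K)) h)
  · rintro ⟨u, hu⟩
    obtain ⟨t, ht⟩ := (root_iff hp hr).1 hu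
    exact ⟨t, Subtype.ext (Subtype.ext ht)⟩

theorem sq_root [CharP K 2] {x : Fin l → ℤ} (hx : IsRoot cs hp.isCartan x) :
    ∀ u ∈ (XV D l K x).subgroupOf (D.group K), u * u = 1 := by
  obtain ⟨r, hr, rfl⟩ := (isRoot_iff hp cs x).1 hx
  intro u hu
  obtain ⟨t, ht⟩ := (root_iff hp hr).1 hu
  apply Subtype.ext
  rw [Subgroup.coe_mul, ← ht, xG_add, CharTwo.add_self_eq_zero, xG_zero]
  rfl

end

theorem two_G2 : ∃ (P : Sylow 2 ↥(chevG2.group (ZMod 2))) (U₁ U₂ : Subgroup ↥(chevG2.group (ZMod 2))),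
    Two _ (P : Subgroup ↥(chevG2.group (ZMod 2))) U₁ U₂ := by
  have := Fact.mk Nat.prime_two
  have hp := typeG2
  have hfin : Finite (CoxeterMatrix.G₂).Group := finite_W hp (CoxeterMatrix.G₂).toCoxeterSystem
  have hR := rgd (K := ZMod 2) hp (CoxeterMatrix.G₂).toCoxeterSystem 2
  have hG := Cfsg.Agent.KFacts.Mult.RGDW.GG_eq_top_of_G1 (T := (chevG2.diagonalSubgroup (ZMod 2)).subgroupOf (chevG2.group (ZMod 2)))
    (G1_eq_top (K := ZMod 2) hp (CoxeterMatrix.G₂).toCoxeterSystem)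
  obtain ⟨S, hS⟩ := exists_sylow hR hG
  have hcard : Nat.card ↥(chevG2.group (ZMod 2)) = 12096 := by
    rw [Cfsg.Agent.S1059.result (q := 2) (by rw [ZMod.card])]
    norm_num
  have h64 : Nat.card (S : Subgroup ↥(chevG2.group (ZMod 2))) = 64 := by
    rw [Sylow.card_eq_multiplicity, hcard, show 12096 = 2 ^ 6 * 189 by norm_num]
    have h1 : (2 ^ 6 * 189).factorization 2 = 6 := by
      rw [Nat.factorization_mul (by norm_num) (by norm_num), Finsupp.add_apply, Nat.factorization_pow, Finsupp.smul_apply,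
        Nat.Prime.factorization_self Nat.prime_two, Nat.factorization_eq_zero_of_not_dvd (by norm_num)]
      rfl
    rw [h1]
    norm_num
  rw [hS] at h64
  have h2 := two hR hG (fun x hx => sq_root hp _ hx) (fun i => by
    rw [card_root hp _ (isRoot_sr (CoxeterMatrix.G₂).toCoxeterSystem hp.isCartan i), Nat.card_zmod]) h64 (i := 0) (j := 1) (by decide)
  rw [← hS] at h2
  exact ⟨S, _, _, h2⟩

/-- **`T2`** -/
theorem g2Two {X : Type u} [Group X] [Finite X] (e : Nonempty (X ≃* ↥(chevG2.group (ZMod 2)))) (P : Sylow 2 X) :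
    ∃ U₁ U₂ : Subgroup X, Two X (P : Subgroup X) U₁ U₂ := by
  have := Fact.mk Nat.prime_two
  obtain ⟨e⟩ := e
  obtain ⟨S, V₁, V₂, h⟩ := two_G2
  let S' : Sylow 2 X := S.mapSurjective (f := e.symm.toMonoidHom) e.symm.surjective
  have hS' : (S' : Subgroup X) = (S : Subgroup _).map e.symm.toMonoidHom := rfl
  obtain ⟨g, hg⟩ := MulAction.exists_smul_eq X S' P
  let φ : ↥(chevG2.group (ZMod 2)) ≃* X := e.symm.trans (MulAut.conj g)
  have hφ : ((S : Subgroup _).map φ.toMonoidHom) = (P : Subgroup X) := by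
    rw [← hg]
    have h2 : ((g • S' : Sylow 2 X) : Subgroup X) = (S' : Subgroup X).map (MulAut.conj g).toMonoidHom := rfl
    rw [h2, hS', Subgroup.map_map]
    rfl
  have h1 := h.map φ
  rw [hφ] at h1
  exact ⟨_, _, h1⟩

end Cfsg.Agent.H565.RV.GTwo
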